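/-
Weakly closed quaternion subgroups: scalar action and the automorphism of order 3.
-/
import Cfsg.Agent.WQ.WB
import Cfsg.Agent.Fus.WRFus

set_option autoImplicit false

open Cfsg Cfsg.FusionSystem Subgroup CL.Inv CL.Grp CL.Fus
open scoped Pointwise

namespace CL.WQ

variable {Ω : Type*} [Group Ω] {S R P : Subgroup Ω} {F : FusionSystem S} {n : ℕ} {D : MC R n 0 (2 * zq n)}
  {g x y d : Ω} {i j : ZMod (2 ^ n)} {α : Ω → Ω}

namespace WB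

variable (B : WB F D)

theorem w2_u_mem (i j : ZMod (2 ^ n)) : B.W.u i j ∈ cen S (B.W.u (2 * zq n) 0) :=
  mem_cen.2 ⟨B.u_mem i j, B.W.u_comm_u _ _ _ _⟩

theorem w2_z2 : B.W.u 0 (2 * zq n) = D.a (2 * zq n) * B.W.u (2 * zq n) 0 := by
  rw [B.z_eq, B.W.u_mul_u]; congr 1
  · linear_combination -D.h4
  · ring

theorem w2_comm (hH : Hyp F D) (hg : g ∈ cen S (B.W.u (2 * zq n) 0)) :
    g * B.W.u 0 (2 * zq n) = B.W.u 0 (2 * zq n) * g := by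
  rw [B.w2_z2, ← mul_assoc, hH.z_comm hg.1, mul_assoc, (mem_cen.1 hg).2, mul_assoc]

theorem w2_cent (hH : Hyp F D) (h1 : B.Cyc) (hg : g ∈ S) (h : ∀ i j, g * B.W.u i j * g⁻¹ = B.W.u i j) : g ∈ B.W.U := by
  obtain ⟨j, a⟩ := hH.act_one_of_comm hg (by rw [B.a_eq]; exact mul_inv_eq_iff_eq_mul.1 (h _ _))
  obtain ⟨m, hm⟩ := h1 _ (mul_mem hg (B.u_mem (-j) 0)) ((a.mul (B.act _ _)).congr (one_mul _) (by ring)) (by
    rw [mul_assoc, B.W.u_comm_u, ← mul_assoc, mul_inv_eq_iff_eq_mul.1 (h _ _), mul_assoc])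
  rw [eq_mul_inv_of_mul_eq hm]
  exact mul_mem (B.W.u_mem_U _ _) (inv_mem (B.W.u_mem_U _ _))

theorem w2_V (hH : Hyp F D) (h2 : B.Nrm) (hg : g ∈ S) : g * B.W.u (2 * zq n) 0 * g⁻¹ = B.W.u (2 * zq n) 0 ∨
    g * B.W.u (2 * zq n) 0 * g⁻¹ = B.W.u 0 (2 * zq n) := by
  have e : B.W.u (2 * zq n) 0 = D.a (zq n) * B.W.u (zq n) (zq n) := by
    rw [B.a_eq, B.W.u_mul_u]; congr 1 <;> ring
  obtain ⟨i, j, a⟩ := hH.exists_act hg
  obtain ⟨r, rfl⟩ := a.odd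
  have e1 : g * B.W.u (2 * zq n) 0 * g⁻¹ = D.a ((2 * r + 1) * zq n) * (g * B.W.u (zq n) (zq n) * g⁻¹) := by
    rw [e, ← conj_mul, a.1]
  rw [e1, B.a_eq]
  rcases zm_half_mul D.two_le r with h | h <;> rcases h2 g hg with h' | h' <;> rw [h', B.W.u_mul_u, B.W.u_eq_iff,
    B.W.u_eq_iff]
  · exact Or.inl ⟨by linear_combination h, by linear_combination -h⟩
  · exact Or.inr ⟨by linear_combination h, by linear_combination -h - D.h4⟩
  · exact Or.inr ⟨by linear_combination h + D.h4, by linear_combination -h - D.h4⟩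
  · exact Or.inl ⟨by linear_combination h, by linear_combination -h - D.h4⟩

theorem w2_scal1 (hH : Hyp F D) (hg : g ∈ S) (h : g * B.W.u (2 * zq n) 0 * g⁻¹ = B.W.u (2 * zq n) 0) :
    ∃ l, ∀ i j, g * B.W.u i j * g⁻¹ = B.W.u (l * i) (l * j) := by
  have h1 : g ∈ cen S (B.W.u (2 * zq n) 0) := mem_cen.2 ⟨hg, mul_inv_eq_iff_eq_mul.1 h⟩
  obtain ⟨l, hl⟩ := B.eq_of_rz1 hH ((B.rz1 1).conj h1)
  obtain ⟨l', hl'⟩ := B.eq_of_rz2 hH ((B.rz2 1).conj (mem_cen.2 ⟨hg, B.w2_comm hH h1⟩))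
  obtain ⟨i, j, a⟩ := hH.exists_act hg
  have e : D.a 1 * B.W.u 0 1 = B.W.u 1 0 := by rw [B.a_eq, B.W.u_mul_u]; congr 1 <;> ring
  rw [← e, ← conj_mul, a.1, hl', B.a_eq, B.W.u_mul_u, B.W.u_eq_iff] at hl
  obtain rfl : l' = l := by linear_combination hl.1 + hl.2
  refine ⟨l', fun s t => ?_⟩
  rw [B.W.u_eq_pow s t, ← conj_mul, ← conj_pow, ← conj_pow, ← e, ← conj_mul, a.1, hl', B.a_eq, B.W.u_mul_u, B.W.u_pow,
    B.W.u_pow, B.W.u_mul_u, ZMod.natCast_zmod_val, ZMod.natCast_zmod_val]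
  congr 1
  · linear_combination s * hl.1
  · linear_combination s * hl.2

theorem w2_scal (hH : Hyp F D) (h2 : B.Nrm) (hg : g ∈ S) :
    ∃ l, (∀ i j, g * B.W.u i j * g⁻¹ = B.W.u (l * i) (l * j)) ∨ ∀ i j, g * B.W.u i j * g⁻¹ = B.W.u (l * j) (l * i) := by
  rcases B.w2_V hH h2 hg with h | h
  · exact (B.w2_scal1 hH hg h).imp fun _ => Or.inl
  have e : ∀ t, B.W.v 0 0 * g * t * (B.W.v 0 0 * g)⁻¹ = B.W.v 0 0 * (g * t * g⁻¹) * (B.W.v 0 0)⁻¹ := fun t => by group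
  obtain ⟨l, hl⟩ := B.w2_scal1 hH (mul_mem (B.v_mem 0 0) hg) (by rw [e, h, B.W.conj_v_u])
  refine ⟨l, Or.inr fun i j => ?_⟩
  have := hl i j
  rw [e, ← B.W.conj_v_u (l * j) (l * i) 0 0] at this
  exact mul_left_cancel (mul_right_cancel this)

theorem w2_sq (h2 : B.Nrm) (hg : g ∈ S) : g * g * B.W.u (zq n) (zq n) = B.W.u (zq n) (zq n) * (g * g) := by
  rw [← mul_inv_eq_iff_eq_mul, show g * g * B.W.u (zq n) (zq n) * (g * g)⁻¹ =
    g * (g * B.W.u (zq n) (zq n) * g⁻¹) * g⁻¹ by group]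
  rcases h2 g hg with h | h
  · rw [h, h]
  · rw [h, ← B.W.u_inv, ← conj_inv, h, B.W.u_inv, neg_neg]

theorem w2_al (hH : Hyp F D) (h1 : B.Cyc) (h2 : B.Nrm) : ∃ α, Mor F (cen S (B.W.u (2 * zq n) 0)) α ∧
    α (B.W.u (2 * zq n) 0) = D.a (2 * zq n) ∧ α (D.a (2 * zq n)) = B.W.u 0 (2 * zq n) := by
  obtain ⟨α, hα, e⟩ := hH.exists_al B.rz.isConjElt
  have hq : D.a (zq n) ∈ cen S (B.W.u (2 * zq n) 0) := B.a_eq _ ▸ B.w2_u_mem _ _
  have hz : D.a (2 * zq n) ∈ cen S (B.W.u (2 * zq n) 0) := B.a_eq _ ▸ B.w2_u_mem _ _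
  have a := hH.type_one_map hα (B.w2_u_mem _ _) hq e B.z1_ne q_mul_q
  obtain ⟨m, hm⟩ := h1 _ (mul_mem (hα.mem hz) (hH.le (D.a_mem (-zq n))))
    ((a.mul (Act.of_a _)).congr (one_mul _) (by ring)) (by
      rw [mul_assoc, B.a_eq (-zq n), B.W.u_comm_u, ← mul_assoc, ← q_mul_q, hα.homOn.map_mul hq hq,
        B.w2_sq h2 (hα.mem hq), mul_assoc, mul_assoc])
  have h3 := eq_mul_inv_of_mul_eq hm
  rw [B.a_eq (-zq n), B.W.u_inv, B.W.u_mul_u] at h3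
  have h4 : α (D.a (2 * zq n)) * α (D.a (2 * zq n)) = 1 := by rw [← hα.homOn.map_mul hz hz, z_mul_z, hα.homOn.map_one]
  rw [h3, B.W.u_mul_u, B.W.u_eq_one_iff] at h4
  rcases zm_two_mul_eq_half D.two_le (i := m) (by linear_combination h4.2) with rfl | rfl
  · refine ⟨_, hα.comp (mor_conj F le_rfl (B.v_mem 0 0)) fun x hx => hα.mem hx, ?_, ?_⟩
    · rw [e, B.z_eq, B.W.conj_v_u]
    · rw [h3, B.W.conj_v_u]; congr 1 <;> ring
  · refine ⟨α, hα, e, h3.trans ?_⟩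
    congr 1
    · ring
    · linear_combination -D.h4

theorem w2_aut (hH : Hyp F D) (h1 : B.Cyc) (h2 : B.Nrm) : ∃ θ ∈ F.autGroup (cen S (B.W.u (2 * zq n) 0)),
    Odd (orderOf θ) ∧ autFun θ (B.W.u (2 * zq n) 0) = D.a (2 * zq n) ∧ autFun θ (D.a (2 * zq n)) = B.W.u 0 (2 * zq n) ∧
      autFun θ (B.W.u 0 (2 * zq n)) = B.W.u (2 * zq n) 0 := by
  have := hH.fin
  obtain ⟨α, hα, e1, e2⟩ := B.w2_al hH h1 h2
  have m1 := B.w2_u_mem (2 * zq n) 0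
  have m2 := B.w2_u_mem 0 (2 * zq n)
  have hz : D.a (2 * zq n) ∈ cen S (B.W.u (2 * zq n) 0) := B.a_eq _ ▸ B.w2_u_mem _ _
  have e3 : α (B.W.u 0 (2 * zq n)) = B.W.u (2 * zq n) 0 := by
    rw [B.w2_z2, hα.homOn.map_mul hz m1, e1, e2, B.z_eq, B.W.u_mul_u]; congr 1
    · ring
    · linear_combination D.h4
  obtain ⟨β, hβ, e⟩ := hα.exists_aut' le_rfl fun x hx => mem_cen.2 ⟨hα.mem hx, by
    rw [← e3, ← hα.homOn.map_mul hx m2, B.w2_comm hH hx, hα.homOn.map_mul m2 hx]⟩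
  have := finite_mulAut (cen_le S (B.W.u (2 * zq n) 0))
  obtain ⟨k, m, hm, ho⟩ := Nat.exists_eq_two_pow_mul_odd (orderOf_pos β).ne'
  have h4 : 4 ^ k = 3 * (4 ^ k / 3) + 1 := by
    have : 4 ^ k % 3 = 1 := by simp [Nat.pow_mod]
    omega
  have key : ∀ x ∈ cen S (B.W.u (2 * zq n) 0), autFun β (autFun β (autFun β x)) = x →
      autFun (β ^ 4 ^ k) x = autFun β x := fun x hx h => by
    rw [h4, autFun_pow_succ β _ hx, pow_mul, autFun_pow_of_fix hx]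
    rw [autFun_pow_succ β _ hx, autFun_pow_succ β _ hx, pow_one, h]
  rw [← e _ m1] at e1
  rw [← e _ hz] at e2
  rw [← e _ m2] at e3
  refine ⟨β ^ 4 ^ k, pow_mem hβ _, hm.of_dvd_nat (orderOf_dvd_of_pow_eq_one ?_), ?_, ?_, ?_⟩
  · rw [← pow_mul, show 4 ^ k * m = 2 ^ k * m * 2 ^ k by rw [show 4 = 2 * 2 by rfl, mul_pow]; ring, ← ho, pow_mul,
      pow_orderOf_eq_one, one_pow]
  · rw [key _ m1 (by rw [e1, e2, e3]), e1]
  · rw [key _ hz (by rw [e2, e3, e1]), e2]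
  · rw [key _ m2 (by rw [e3, e1, e2]), e3]

theorem exists_WA (hH : Hyp F D) (B : WB F D) (h1 : B.Cyc) (h2 : B.Nrm) : Nonempty (WA F D) := by
  obtain ⟨θ, hθ, ho, e1, e2, e3⟩ := B.w2_aut hH h1 h2
  have hf := mor_autFun (cen_le _ _) hθ
  have hu := B.w2_u_mem
  have ha : ∀ i, D.a i ∈ cen S (B.W.u (2 * zq n) 0) := fun i => B.a_eq _ ▸ B.w2_u_mem _ _
  obtain ⟨k, hk⟩ := eq_a_of_pow_four (D := D) (hH.mem_of_rz (e1 ▸ (B.rz1 1).map hf (hu _ _) (hu _ _))) fun e' => by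
    rw [← hf.homOn.map_pow (hu _ _), ← hf.homOn.map_one] at e'
    have := hf.injOn (pow_mem (hu _ _) 4) (one_mem _) e'
    rw [B.W.u_pow, B.W.u_eq_one_iff] at this
    exact zm_four_ne_zero hH.three (by simpa using this.1)
  obtain ⟨l, hl⟩ := B.eq_of_rz2 hH (e2 ▸ (hH.rz_z (D.a_mem 1)).map hf (ha _) (ha _))
  obtain ⟨m, hm⟩ := B.eq_of_rz1 hH (e3 ▸ (B.rz2 1).map hf (hu _ _) (hu _ _))
  have e : D.a 1 * B.W.u 0 1 = B.W.u 1 0 := by rw [B.a_eq, B.W.u_mul_u]; congr 1 <;> ring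
  have h3 := hf.homOn.map_mul (ha 1) (hu 0 1)
  rw [e, hk, hl, hm, B.a_eq, B.W.u_mul_u, B.W.u_eq_iff] at h3
  have h4 : ∀ i j, autFun θ (B.W.u i j) = B.W.u (k * (i + j)) (-(k * i)) := fun i j => by
    rw [B.W.u_eq_pow i j, hf.homOn.map_mul (pow_mem (hu _ _) _) (pow_mem (hu _ _) _), hf.homOn.map_pow (hu _ _),
      hf.homOn.map_pow (hu _ _), hk, hm, B.a_eq, B.W.u_pow, B.W.u_pow, B.W.u_mul_u, ZMod.natCast_zmod_val,
      ZMod.natCast_zmod_val]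
    congr 1
    · linear_combination -j * h3.1
    · ring
  have h5 : autFun (θ ^ 3) (B.W.u 1 0) = B.W.u (-k ^ 3) 0 := by
    rw [autFun_pow_succ θ _ (hu _ _), autFun_pow_succ θ _ (hu _ _), pow_one, h4, h4, h4]; congr 1 <;> ring
  have h6 := aut_fix_of_mem_zpowers (hH.pS.to_le (cen_le S _)) (ho.of_dvd_nat (orderOf_pow_dvd 3)) (a := ⟨_, hu 1 0⟩)
    ⟨(-k ^ 3).val, Subtype.ext (by
      rw [← autFun_apply, h5]
      simp only [zpow_natCast, SubgroupClass.coe_pow, B.W.u_pow, ZMod.natCast_zmod_val, mul_one, mul_zero])⟩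
  rw [autFun_apply _ (hu _ _), h6, B.W.u_eq_iff] at h5
  obtain rfl : k = -1 := by
    obtain ⟨r, rfl | rfl⟩ := zm_even_or_odd k
    · exact eq_neg_of_add_eq_zero_left (eq_zero_of_odd_mul (r := 2 * r ^ 2 - r) (by linear_combination h5.1))
    · exact eq_neg_of_add_eq_zero_left (eq_zero_of_odd_mul (r := 2 * r ^ 2 + r) (by linear_combination h5.1))
  exact ⟨⟨B.K, B.W, B.K_le, B.a_eq, B.b_eq, fun g hg => B.w2_scal hH h2 hg, fun g hg => B.w2_cent hH h1 hg, θ, hθ, ho,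
    fun i j => (h4 i j).trans (by congr 1 <;> ring)⟩⟩

end WB

end CL.WQ
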